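import Mathlib

set_option autoImplicit false

namespace Cfsg.Agent.AltF

def aC11 : Equiv.Perm (Fin 11) := finRotate 11
def aM11 : Equiv.Perm (Fin 11) := ⟨fun i => 3 * i, fun i => 4 * i, by decide, by decide⟩

theorem ex11 {r : ℕ} (hr : 11 ≤ r) : ∃ a b : alternatingGroup (Fin r),
    orderOf a = 11 ∧ b * a * b⁻¹ = a ^ 3 := by
  let ι := Equiv.Perm.viaEmbeddingHom (Fin.castLEEmb hr)
  have hι : Function.Injective ι := Equiv.Perm.viaEmbeddingHom_injective _
  have h1 : aC11 = (aC11 ^ 6) ^ 2 := by decide +kernel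
  have h2 : aM11 = (aM11 ^ 3) ^ 2 := by decide +kernel
  have hs : ∀ c : Equiv.Perm (Fin 11), ι (c ^ 2) ∈ alternatingGroup (Fin r) := fun c => by
    rw [Equiv.Perm.mem_alternatingGroup, map_pow, map_pow, Int.units_sq]
  refine ⟨⟨ι aC11, h1 ▸ hs _⟩, ⟨ι aM11, h2 ▸ hs _⟩, ?_, Subtype.ext ?_⟩
  · rw [← Subgroup.orderOf_coe, orderOf_injective ι hι]
    exact orderOf_eq_prime (hp := ⟨by norm_num⟩) (by decide +kernel) (by decide +kernel)
  · simp only [Subgroup.coe_mul, Subgroup.coe_inv, Subgroup.coe_pow]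
    rw [← map_inv, ← map_mul, ← map_mul, ← map_pow]
    congr 1
    decide +kernel

def aA12 : Equiv.Perm (Fin 12) :=
  ⟨![1, 2, 3, 4, 0, 5, 6, 7, 8, 9, 10, 11], ![4, 0, 1, 2, 3, 5, 6, 7, 8, 9, 10, 11],
    by decide, by decide⟩
def aC12 : Equiv.Perm (Fin 12) :=
  ⟨![0, 1, 2, 3, 4, 6, 7, 8, 9, 10, 11, 5], ![0, 1, 2, 3, 4, 11, 5, 6, 7, 8, 9, 10],
    by decide, by decide⟩
def aB12 : Equiv.Perm (Fin 12) :=
  ⟨![0, 2, 4, 1, 3, 5, 8, 11, 7, 10, 6, 9], ![0, 3, 1, 4, 2, 5, 10, 8, 6, 11, 9, 7],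
    by decide, by decide⟩

theorem aB12_eq : aB12 = (Equiv.swap 1 3 * Equiv.swap 1 4) * (Equiv.swap 1 2 * Equiv.swap 6 10) *
    (Equiv.swap 6 9 * Equiv.swap 6 11) * (Equiv.swap 6 7 * Equiv.swap 6 8) := by decide +kernel

theorem ex35 {r : ℕ} (hr : 12 ≤ r) : ∃ a c b : alternatingGroup (Fin r),
    orderOf a = 5 ∧ orderOf c = 7 ∧ a * c = c * a ∧ b * a * b⁻¹ = a ^ 2 ∧
      b * c * b⁻¹ = c ^ 3 := by
  let ι := Equiv.Perm.viaEmbeddingHom (Fin.castLEEmb hr)
  have hι : Function.Injective ι := Equiv.Perm.viaEmbeddingHom_injective _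
  have h1 : aA12 = (aA12 ^ 3) ^ 2 := by decide +kernel
  have h2 : aC12 = (aC12 ^ 4) ^ 2 := by decide +kernel
  have hs : ∀ c : Equiv.Perm (Fin 12), ι (c ^ 2) ∈ alternatingGroup (Fin r) := fun c => by
    rw [Equiv.Perm.mem_alternatingGroup, map_pow, map_pow, Int.units_sq]
  have hb : ι aB12 ∈ alternatingGroup (Fin r) := by
    have key : ∀ x y z w : Fin 12, x ≠ y → z ≠ w →
        ι (Equiv.swap x y * Equiv.swap z w) ∈ alternatingGroup (Fin r) := by
      intro x y z w hxy hzw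
      have hc : IsConj (Equiv.swap x y) (Equiv.swap z w) := Equiv.Perm.isConj_swap hxy hzw
      rw [Equiv.Perm.mem_alternatingGroup, map_mul, map_mul]
      have := isConj_iff_eq.mp ((Equiv.Perm.sign.comp ι).map_isConj hc)
      simp only [MonoidHom.comp_apply] at this
      rw [this, Int.units_mul_self]
    rw [aB12_eq, map_mul, map_mul, map_mul]
    exact mul_mem (mul_mem (mul_mem (key _ _ _ _ (by decide) (by decide))
      (key _ _ _ _ (by decide) (by decide))) (key _ _ _ _ (by decide) (by decide)))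
      (key _ _ _ _ (by decide) (by decide))
  refine ⟨⟨ι aA12, h1 ▸ hs _⟩, ⟨ι aC12, h2 ▸ hs _⟩, ⟨ι aB12, hb⟩, ?_, ?_, Subtype.ext ?_,
    Subtype.ext ?_, Subtype.ext ?_⟩
  · rw [← Subgroup.orderOf_coe, orderOf_injective ι hι]
    exact orderOf_eq_prime (hp := ⟨by norm_num⟩) (by decide +kernel) (by decide +kernel)
  · rw [← Subgroup.orderOf_coe, orderOf_injective ι hι]
    exact orderOf_eq_prime (hp := ⟨by norm_num⟩) (by decide +kernel) (by decide +kernel)
  · simp only [Subgroup.coe_mul]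
    rw [← map_mul, ← map_mul]
    congr 1
    decide +kernel
  · simp only [Subgroup.coe_mul, Subgroup.coe_inv, Subgroup.coe_pow]
    rw [← map_inv, ← map_mul, ← map_mul, ← map_pow]
    congr 1
    decide +kernel
  · simp only [Subgroup.coe_mul, Subgroup.coe_inv, Subgroup.coe_pow]
    rw [← map_inv, ← map_mul, ← map_mul, ← map_pow]
    congr 1
    decide +kernel

end Cfsg.Agent.AltF
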