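import Mathlib
import Cfsg.Agent.Chev.SsF4a
import Cfsg.Agent.Chev.Sec7
import Cfsg.Agent.Chev.GrAut

/-! Action on subsets of the split torus of `F₄`. -/

set_option autoImplicit false
set_option linter.unusedSectionVars false
set_option maxHeartbeats 400000
set_option maxRecDepth 100000

namespace Cfsg.Agent.AltF
open Cfsg.Lie Cfsg.Agent.BN Cfsg.Agent.Chev StSys

attribute [local instance] good2F4

theorem c_chk : certF4.chkW chevF4 1152 wlF4 wnF4 (fun P =>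
    allN 48 (fun r => Nat.beq (itB P 6 r) r) || allN 48 (fun r => Nat.beq (itB P 8 r) r) ||
    allN 48 (fun r => Nat.beq (itB P 6 r) (47 - r))) = true := by decide +kernel

theorem c_W (w : W chevF4) : w ^ 6 = 1 ∨ w ^ 8 = 1 ∨ ∀ r : Rt chevF4, w ^ 6 • r = ng r := by
  obtain ⟨P, h1, h2⟩ := chkW_spec c_chk w
  have h3 : ∀ (e : ℕ) (r : Rt chevF4), ((w ^ e • r : Rt chevF4) : ℕ) = itB P e r := fun e r => by
    induction e with
    | zero => rfl
    | succ e ih => rw [pow_succ', mul_smul, h2, ih]; rfl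
  have h4 : ∀ r : Rt chevF4, ((ng r : Rt chevF4) : ℕ) = 47 - r := by decide +kernel
  simp only [Bool.or_eq_true, allN_iff, Nat.beq_eq] at h1
  rcases h1 with (h1 | h1) | h1
  · exact .inl (W_ext fun r => Fin.ext ((h3 6 r).trans (h1 r r.2)))
  · exact .inr (.inl (W_ext fun r => Fin.ext ((h3 8 r).trans (h1 r r.2))))
  · exact .inr (.inr fun r => Fin.ext ((h3 6 r).trans ((h1 r r.2).trans (h4 r).symm)))

variable {K : Type*} [Field K]

theorem c_act {y : GL chevF4.Idx K} (hy : y ∈ (glSys chevF4 K).grp) :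
    ∃ n ∈ (glSys chevF4 K).N, ∀ s ∈ (glSys chevF4 K).H, y * s * y⁻¹ ∈ (glSys chevF4 K).H →
      y * s * y⁻¹ = n * s * n⁻¹ := by
  obtain ⟨w, hw⟩ := exists_cell hy
  obtain ⟨u, hu, a, ha, hm, v, hv, rfl⟩ := exists_normal' hw
  refine ⟨a, ha, fun s hs hs' => ?_⟩
  set s' := u * a * v * s * (u * a * v)⁻¹ with e
  have := (normal_unique' hu (H_conj_mem hs' hu) (mul_mem ha ((glSys chevF4 K).H_le_N hs))
    (mul_mem ((glSys chevF4 K).H_le_N hs') ha) (by simpa using hm.mul (mono_of_mem_H hs))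
    (by simpa using (mono_of_mem_H hs').mul hm) (H_conj_mem' hs hv) hv (by rw [e]; group)).2.1
  rw [eq_mul_inv_iff_mul_eq, this]

theorem c_tri {E : Type*} [Group E] (ψ : E →* GL chevF4.Idx K) (hψ : Function.Injective ψ)
    (T : Set E) (hT : ∀ x ∈ T, ψ x ∈ (glSys chevF4 K).H) {y : E} (hy : ψ y ∈ (glSys chevF4 K).grp)
    (h : ∀ x ∈ T, y * x * y⁻¹ ∈ T) :
    (∀ x ∈ T, y ^ 6 * x * (y ^ 6)⁻¹ = x) ∨ (∀ x ∈ T, y ^ 8 * x * (y ^ 8)⁻¹ = x) ∨
      ∀ x ∈ T, y ^ 6 * x * (y ^ 6)⁻¹ = x⁻¹ := by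
  obtain ⟨n, hn, hn'⟩ := c_act hy
  obtain ⟨w, hw⟩ := exists_mono hn
  have key : ∀ x ∈ T, ∀ k : ℕ, y ^ k * x * (y ^ k)⁻¹ ∈ T ∧
      ψ (y ^ k * x * (y ^ k)⁻¹) = n ^ k * ψ x * (n ^ k)⁻¹ := fun x hx k => by
    induction k with
    | zero => simpa using hx
    | succ k ih =>
      have e : y ^ (k + 1) * x * (y ^ (k + 1))⁻¹ = y * (y ^ k * x * (y ^ k)⁻¹) * y⁻¹ := by
        rw [pow_succ']; group
      have h1 := h _ ih.1
      refine ⟨e ▸ h1, ?_⟩
      have h2 := hT _ h1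
      rw [map_mul, map_mul, map_inv] at h2
      rw [e, map_mul, map_mul, map_inv, hn' _ (hT _ ih.1) h2, ih.2, pow_succ']
      group
  have hm : ∀ k : ℕ, (glSys chevF4 K).Mono (n ^ k) (w ^ k) := fun k => by
    induction k with
    | zero => simpa using mono_of_mem_H (one_mem (glSys chevF4 K).H)
    | succ k ih => rw [pow_succ, pow_succ]; exact ih.mul hw
  have h1 : ∀ k : ℕ, w ^ k = 1 → ∀ x ∈ T, y ^ k * x * (y ^ k)⁻¹ = x := fun k hk x hx => hψ (by
    rw [(key x hx k).2, gl_H_comm _ (mem_H_of_mono (pow_mem hn k) (hk ▸ hm k)) _ (hT x hx),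
      mul_inv_cancel_right])
  rcases c_W w with h2 | h2 | h2
  · exact .inl (h1 6 h2)
  · exact .inr (.inl (h1 8 h2))
  · refine .inr (.inr fun x hx => hψ ?_)
    obtain ⟨c, hc⟩ := (gl_R3 (D := chevF4) (F := K)).range_hT.ge (hT x hx)
    rw [(key x hx 6).2, map_inv ψ x, ← hc, gl_R3.mono_conj (pow_mem hn 6) (hm 6), ← map_inv]
    congr 1
    have : cvM (fun r : Rt chevF4 => w ^ 6 • r) = Matrix.diagonal fun _ => -1 := by
      ext i j
      simp [cvM, h2, Matrix.diagonal_apply, Pi.single_apply, eq_comm]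
      split_ifs <;> simp
    rw [this]
    ext1 j
    rw [pw_diagonal]
    simp

theorem c_idx [Finite K] {l : ℕ} (h1 : (Nat.card K : ZMod l) = 1) (h2 : (1152 : ZMod l) ≠ 0) :
    ¬ l ∣ ((glSys chevF4 K).H.subgroupOf (chevF4.group K)).index := by
  have h3 := (gl_R3 (D := chevF4) (F := K)).card_H
  have h4 := (gl_R3 (D := chevF4) (F := K)).card_grp
  rw [ker_hT_F4, Subgroup.card_bot, one_mul] at h3 h4
  have h5 := ((glSys chevF4 K).H.subgroupOf (chevF4.group K)).card_mul_index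
  have hle : (glSys chevF4 K).H ≤ chevF4.group K := group_eq (D := chevF4) (F := K) ▸
    (glSys chevF4 K).H_le_grp
  rw [Nat.card_congr (Subgroup.subgroupOfEquivOfLe hle).toEquiv, h3] at h5
  rw [← group_eq, ← h5] at h4
  have h6 : 1 < Nat.card K := Finite.one_lt_card
  push_cast [Nat.cast_sub h6.le] at h4
  have h7 : (((glSys chevF4 K).H.subgroupOf (chevF4.group K)).index : ℤ) =
      (Nat.card K : ℤ) ^ (chevF4.nroots / 2) * poin chevF4 (Nat.card K) :=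
    mul_left_cancel₀ (pow_ne_zero chevF4.rank (by omega : (Nat.card K : ℤ) - 1 ≠ 0))
      (by rw [h4]; ring)
  intro h
  have h8 := congrArg (Int.cast : ℤ → ZMod l) h7
  rw [poin_F4_eq] at h8
  push_cast at h8
  rw [(ZMod.natCast_eq_zero_iff _ _).2 h, h1] at h8
  apply h2
  rw [h8]
  norm_num

theorem c_one {G : Type*} [Group G] [Finite G] {l : ℕ} [Fact l.Prime] {H P : Subgroup G}
    (h : ¬ l ∣ H.index) (hP : IsPGroup l P) : ∃ c : G, ∀ x ∈ P, c * x * c⁻¹ ∈ H := by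
  obtain ⟨R, hR⟩ := FGS.exists_sylow_le_of_not_dvd_index h
  obtain ⟨R', hR'⟩ := hP.exists_le_sylow
  obtain ⟨c, hc⟩ := MulAction.exists_smul_eq G R' R
  refine ⟨c, fun s hs => hR ?_⟩
  rw [← hc, Sylow.coe_subgroup_smul]
  exact Subgroup.smul_mem_pointwise_smul _ _ _ (hR' hs)

theorem c_two {G : Type*} [Group G] [Finite G] {l m : ℕ} [Fact l.Prime] [Fact m.Prime]
    {H P Q : Subgroup G} (hH : ∀ a ∈ H, ∀ b ∈ H, a * b = b * a) (h : ¬ l ∣ H.index)
    (h' : ¬ m ∣ H.index) (hP : IsPGroup l P) (hQ : IsPGroup m Q)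
    (hc : ∀ x ∈ P, ∀ z ∈ Q, x * z = z * x) :
    ∃ c : G, (∀ x ∈ P, c * x * c⁻¹ ∈ H) ∧ ∀ x ∈ Q, c * x * c⁻¹ ∈ H := by
  obtain ⟨c, h1⟩ := c_one h hP
  let C := Subgroup.centralizer (P : Set G)
  let H' := H.comap (MulAut.conj c).toMonoidHom
  have h2 : H' ≤ C := fun z hz x hx => (MulAut.conj c).injective (by
    rw [map_mul, map_mul]; exact hH _ (h1 x hx) _ hz)
  have h3 : ¬ m ∣ (H'.subgroupOf C).index := fun e => h' (by
    rw [← H.index_comap_of_surjective (f := (MulAut.conj c).toMonoidHom) (MulAut.conj c).surjective]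
    exact e.trans (Subgroup.relIndex_dvd_index_of_le h2))
  obtain ⟨d, h4⟩ := c_one h3 (hQ.comap_subtype (K := C))
  refine ⟨c * d, fun x hx => ?_, fun x hx => ?_⟩
  · have := h1 x hx
    have e : x * d = d * x := d.2 x hx
    rwa [show c * d * x * (c * d)⁻¹ = c * x * c⁻¹ by
      rw [mul_assoc c (d : G) x, ← e]; group]
  · have : c * (d * x * (d : G)⁻¹) * c⁻¹ ∈ H := h4 ⟨x, fun z hz => hc z hz x hx⟩ hx
    rwa [show c * d * x * (c * d)⁻¹ = c * (d * x * (d : G)⁻¹) * c⁻¹ by group]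

end Cfsg.Agent.AltF
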