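import Mathlib

namespace Cfsg.Agent.AltF

open Subgroup

theorem lift2_key {G A : Type*} [Group G] [Finite G] [Group A] (π : G →* A)
    (hmin : ∀ E : Subgroup G, E.map π = π.range → E = ⊤) {p : ℕ} [Fact p.Prime] {a : A}
    (ha : orderOf a = p) (har : a ∈ π.range)
    (hn : ∀ g : G, π g * a * (π g)⁻¹ ∈ zpowers a) :
    ∃ P : Subgroup G, IsPGroup p P ∧ P.Normal ∧ ∃ x ∈ P, π x = a := by
  let M : Subgroup G := (zpowers a).comap π
  haveI hM : M.Normal := ⟨fun m hm g => by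
    obtain ⟨k, hk⟩ := (mem_comap.mp hm : π m ∈ zpowers a)
    simp only at hk
    change π (g * m * g⁻¹) ∈ zpowers a
    rw [map_mul, map_mul, map_inv, ← hk, ← conj_zpow]
    exact zpow_mem (hn g) k⟩
  let P : Sylow p M := default
  let f : M →* zpowers a := (π.comp M.subtype).codRestrict _ fun g => g.2
  have hf : Function.Surjective f := fun c => by
    obtain ⟨g0, hg0⟩ := har
    obtain ⟨k, hk⟩ := c.2
    simp only at hk
    have hg : π (g0 ^ k) = c := by rw [map_zpow, hg0, hk]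
    exact ⟨⟨g0 ^ k, by simp only [M, mem_comap, hg]; exact c.2⟩, Subtype.ext hg⟩
  have hz : IsPGroup p (zpowers a) := IsPGroup.of_card (n := 1) (by simp [ha])
  have htop : ((P.mapSurjective hf : Sylow p _) : Subgroup (zpowers a)) = ⊤ :=
    ((P.mapSurjective hf).3 (hz.to_subgroup ⊤) le_top).symm
  have hall : ∀ c : zpowers a, c ∈ (P : Subgroup M).map f := fun c => by
    rw [← Sylow.coe_mapSurjective hf, htop]; trivial
  set P' : Subgroup G := (P : Subgroup M).map M.subtype with hP'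
  have hfr : normalizer (P' : Set G) ⊔ M = ⊤ := Sylow.normalizer_sup_eq_top P
  have hMle : M.map π ≤ (normalizer (P' : Set G)).map π := by
    rintro _ ⟨m, hm, rfl⟩
    obtain ⟨x, hx, hxa⟩ := hall ⟨π m, hm⟩
    exact ⟨x, le_normalizer ⟨x, hx, rfl⟩, congrArg Subtype.val hxa⟩
  have hN : normalizer (P' : Set G) = ⊤ := by
    apply hmin
    rw [MonoidHom.range_eq_map, ← hfr, Subgroup.map_sup, sup_eq_left.mpr hMle]
  obtain ⟨x, hx, hxa⟩ := hall ⟨a, mem_zpowers a⟩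
  exact ⟨P', P.2.map _, normalizer_eq_top_iff.mp hN, x, ⟨x, hx, rfl⟩, congrArg Subtype.val hxa⟩

theorem lift2_norm {A : Type*} [Group A] {a c b : A} {p i : ℕ} [hp : Fact p.Prime]
    (ha : orderOf a = p) (hac : a * c = c * a) (hba : b * a * b⁻¹ = a ^ i) {D : Subgroup A}
    (hD : D ≤ closure {a, c, b}) : ∀ d ∈ D, d * a * d⁻¹ ∈ zpowers a := by
  haveI : Finite (zpowers a) := by
    apply Nat.finite_of_card_ne_zero
    rw [Nat.card_zpowers, ha]; exact hp.out.ne_zero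
  have key : ∀ d : A, d * a * d⁻¹ ∈ zpowers a → d ∈ normalizer (zpowers a : Set A) := by
    intro d hd
    haveI : Finite (zpowers a : Set A) := inferInstanceAs (Finite (zpowers a))
    refine mem_normalizer_fintype ?_
    rintro n ⟨k, rfl⟩
    simp only
    rw [← conj_zpow]
    exact zpow_mem hd k
  have hle : closure {a, c, b} ≤ normalizer (zpowers a : Set A) := by
    rw [closure_le]
    rintro d (rfl | rfl | rfl)
    · exact key _ (by simp)
    · exact key _ (by rw [← hac]; simp)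
    · exact key _ (by rw [hba]; exact pow_mem (mem_zpowers a) i)
  intro d hd
  exact (mem_normalizer_iff.mp (hle (hD hd)) a).1 (mem_zpowers a)

theorem lift2 {G A : Type*} [Group G] [Finite G] [Group A] (π : G →* A)
    (hπ : Function.Surjective π) {p q i j : ℕ} [Fact p.Prime] [Fact q.Prime] (hpq : p ≠ q)
    {a c b : A} (ha : orderOf a = p) (hc : orderOf c = q) (hac : a * c = c * a)
    (hba : b * a * b⁻¹ = a ^ i) (hbc : b * c * b⁻¹ = c ^ j) :
    ∃ P Q : Subgroup G, IsPGroup p P ∧ IsPGroup q Q ∧ (∀ x ∈ P, ∀ z ∈ Q, x * z = z * x) ∧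
      ∃ y : G, (∀ x ∈ P, y * x * y⁻¹ ∈ P) ∧ (∀ z ∈ Q, y * z * y⁻¹ ∈ Q) ∧ π y = b ∧
        (∃ x ∈ P, π x = a) ∧ ∃ z ∈ Q, π z = c := by
  set D : Subgroup A := closure {a, c, b} with hD
  obtain ⟨E, hE⟩ := exists_minimal_of_wellFoundedLT (fun E : Subgroup G => E.map π = D)
    ⟨D.comap π, map_comap_eq_self_of_surjective hπ D⟩
  let ρ : E →* A := π.comp E.subtype
  have hr : ρ.range = D := by
    rw [← hE.1]
    ext x
    constructor
    · rintro ⟨g, rfl⟩; exact ⟨g, g.2, rfl⟩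
    · rintro ⟨g, hg, rfl⟩; exact ⟨⟨g, hg⟩, rfl⟩
  have hmin : ∀ E' : Subgroup E, E'.map ρ = ρ.range → E' = ⊤ := by
    intro E' h
    have h1 : (E'.map E.subtype).map π = D := by rw [map_map, ← hr, ← h]
    have h2 : E ≤ E'.map E.subtype := hE.2 h1 (map_subtype_le E')
    rw [eq_top_iff]
    intro g _
    obtain ⟨g', hg', e⟩ := h2 g.2
    have : g' = g := Subtype.ext e
    exact this ▸ hg'
  have haD : a ∈ ρ.range := hr ▸ subset_closure (by simp)
  have hcD : c ∈ ρ.range := hr ▸ subset_closure (by simp)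
  have hbD : b ∈ ρ.range := hr ▸ subset_closure (by simp)
  obtain ⟨P, hP, hPn, x, hx, hxa⟩ := lift2_key ρ hmin ha haD fun g =>
    lift2_norm ha hac hba (D := D) le_rfl _ (hr ▸ ⟨g, rfl⟩)
  obtain ⟨Q, hQ, hQn, z, hz, hzc⟩ := lift2_key ρ hmin hc hcD fun g =>
    lift2_norm hc hac.symm hbc (D := D) (by rw [hD, Set.insert_comm]) _ (hr ▸ ⟨g, rfl⟩)
  obtain ⟨y, hy⟩ := hbD
  have hcomm := commute_of_normal_of_disjoint P Q hPn hQn
    (IsPGroup.disjoint_of_ne p q hpq P Q hP hQ)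
  refine ⟨P.map E.subtype, Q.map E.subtype, hP.map _, hQ.map _, ?_, y, ?_, ?_, hy,
    ⟨x, ⟨x, hx, rfl⟩, hxa⟩, z, ⟨z, hz, rfl⟩, hzc⟩
  · rintro _ ⟨u, hu, rfl⟩ _ ⟨v, hv, rfl⟩
    exact congrArg Subtype.val (hcomm u v hu hv).eq
  · rintro _ ⟨u, hu, rfl⟩
    exact ⟨_, hPn.conj_mem u hu y, rfl⟩
  · rintro _ ⟨u, hu, rfl⟩
    exact ⟨_, hQn.conj_mem u hu y, rfl⟩

end Cfsg.Agent.AltF
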