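import Mathlib
import Cfsg.Agent.AltF.C
import Cfsg.Agent.AltF.L
import Cfsg.Agent.AltF.A

/-! Alternating sections of `F₄`. -/

set_option autoImplicit false
set_option linter.unusedSectionVars false
set_option maxRecDepth 100000

namespace Cfsg.Agent.AltF
open Cfsg.Lie Cfsg.Agent.BN Cfsg.Agent.Chev StSys

attribute [local instance] good2F4

theorem m_pow {A : Type*} [Group A] {a b : A} {i : ℕ} (h : b * a * b⁻¹ = a ^ i) (k : ℕ) :
    b ^ k * a * (b ^ k)⁻¹ = a ^ i ^ k := by
  induction k with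
  | zero => simp
  | succ k ih =>
    calc b ^ (k + 1) * a * (b ^ (k + 1))⁻¹ = b * (b ^ k * a * (b ^ k)⁻¹) * b⁻¹ := by
          rw [pow_succ']; group
      _ = _ := by rw [ih, ← conj_pow, h, ← pow_mul, pow_succ']

theorem m_one {A : Type*} [Group A] {a : A} {n m : ℕ} (ha : orderOf a = n) (h : a ^ (m + 1) = a) :
    n ∣ m := by
  rw [pow_succ, mul_eq_right] at h
  exact ha ▸ orderOf_dvd_of_pow_eq_one h

theorem m_inv {A : Type*} [Group A] {a : A} {n m : ℕ} (ha : orderOf a = n) (h : a ^ m = a⁻¹) :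
    n ∣ m + 1 := by
  rw [eq_inv_iff_mul_eq_one, ← pow_succ] at h
  exact ha ▸ orderOf_dvd_of_pow_eq_one h

theorem m_mod {F : Type*} [Field F] [Fintype F] (p : ℕ) [Fact p.Prime] [CharP F p] {l : ℕ}
    [Fact l.Prime] (h : p ≠ l) (h2 : l - 1 ∣ 60) :
    (Nat.card (FiniteField.Extension F p 60) : ZMod l) = 1 := by
  obtain ⟨n, -, hn⟩ := FiniteField.card F p
  obtain ⟨k, hk⟩ := h2
  have : (p : ZMod l) ≠ 0 := fun e => h ((Nat.prime_dvd_prime_iff_eq Fact.out Fact.out).1
    ((ZMod.natCast_eq_zero_iff _ _).1 e)).symm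
  rw [FiniteField.natCard_extension, Nat.card_eq_fintype_card, hn, hk]
  push_cast
  rw [pow_mul, ZMod.pow_card_sub_one_eq_one (pow_ne_zero _ this), one_pow]

theorem main {F : Type*} [Field F] [Fintype F] (p : ℕ) [Fact p.Prime] [CharP F p]
    (r : ℕ) (H : Subgroup (chevF4.group F)) (N : Subgroup H) [N.Normal]
    (h : Nonempty (H ⧸ N ≃* alternatingGroup (Fin r))) :
    r ≤ 10 + (if p = 11 then 1 else 0) := by
  by_contra hr
  obtain ⟨e⟩ := h
  let K := FiniteField.Extension F p 60
  let j : H →* chevF4.group K := (fieldMor chevF4 (algebraMap F K)).f.comp H.subtype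
  have hj : Function.Injective j := fun a b hab => Subtype.ext (Subtype.ext (Units.ext
    (Matrix.map_injective (algebraMap F K).injective (by
      have := congrArg (fun z : chevF4.group K => (z : GL chevF4.Idx K).val) hab
      exact this))))
  have : Finite (chevF4.group K) := inferInstance
  have : Finite H := Finite.of_injective j hj
  let π := e.toMonoidHom.comp (QuotientGroup.mk' N)
  have hπ : Function.Surjective π := e.surjective.comp (QuotientGroup.mk'_surjective N)
  have tri : ∀ (c : chevF4.group K) (T : Set H),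
      (∀ x ∈ T, c * j x * c⁻¹ ∈ (glSys chevF4 K).H.subgroupOf (chevF4.group K)) → ∀ y : H,
      (∀ x ∈ T, y * x * y⁻¹ ∈ T) →
      (∀ x ∈ T, π y ^ 6 * π x * (π y ^ 6)⁻¹ = π x) ∨ (∀ x ∈ T, π y ^ 8 * π x * (π y ^ 8)⁻¹ = π x) ∨
        ∀ x ∈ T, π y ^ 6 * π x * (π y ^ 6)⁻¹ = (π x)⁻¹ := fun c T hT y hy => by
    have := c_tri ((chevF4.group K).subtype.comp ((MulAut.conj c).toMonoidHom.comp j))
      (Subtype.val_injective.comp ((MulAut.conj c).injective.comp hj)) T hT (y := y)
      (group_eq (D := chevF4) (F := K) ▸ (c * j y * c⁻¹).2) hy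
    refine this.imp (fun h x hx => ?_) (Or.imp (fun h x hx => ?_) fun h x hx => ?_) <;>
      simpa only [map_mul, map_inv, map_pow] using congrArg π (h x hx)
  by_cases hp : p = 11
  · subst hp
    obtain ⟨a, c, b, ha, hc, hac, hba, hbc⟩ := ex35 (r := r) (by simp at hr; omega)
    have := Fact.mk Nat.prime_five
    have : Fact (Nat.Prime 7) := ⟨by norm_num⟩
    obtain ⟨P, Q, hP, hQ, hPQ, y, h1, h2, rfl, ⟨x, hx, rfl⟩, z, hz, rfl⟩ :=
      lift2 π hπ (by decide) ha hc hac hba hbc
    obtain ⟨d, h3, h4⟩ := c_two (H := (glSys chevF4 K).H.subgroupOf (chevF4.group K))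
      (fun a ha b hb => Subtype.ext (gl_H_comm _ ha _ hb))
      (c_idx (m_mod 11 (l := 5) (by decide) (by decide)) (by decide))
      (c_idx (m_mod 11 (l := 7) (by decide) (by decide)) (by decide)) (hP.map j) (hQ.map j) (by
        rintro _ ⟨a, ha, rfl⟩ _ ⟨b, hb, rfl⟩
        rw [← map_mul, ← map_mul, hPQ a ha b hb])
    rcases tri d (P ∪ Q) (fun x hx => hx.elim (fun h => h3 _ ⟨x, h, rfl⟩) fun h => h4 _ ⟨x, h, rfl⟩)
      y (fun x hx => hx.imp (h1 x) (h2 x)) with h | h | h
    · exact absurd (m_one (m := 63) ha ((m_pow hba 6).symm.trans (h x (.inl hx)))) (by decide)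
    · exact absurd (m_one (m := 6560) hc ((m_pow hbc 8).symm.trans (h z (.inr hz)))) (by decide)
    · exact absurd (m_inv hc ((m_pow hbc 6).symm.trans (h z (.inr hz)))) (by decide)
  · obtain ⟨a, b, ha, hb⟩ := ex11 (r := r) (by simp [hp] at hr; omega)
    have : Fact (Nat.Prime 11) := ⟨by norm_num⟩
    have hbn : b ∈ Subgroup.normalizer (Subgroup.zpowers a : Set _) := by
      refine Subgroup.mem_normalizer_fintype fun n hn => ?_
      obtain ⟨k, rfl⟩ := hn
      simp only
      rw [← conj_zpow, hb]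
      exact zpow_mem (pow_mem (Subgroup.mem_zpowers a) 3) k
    obtain ⟨P, hP, y, hy, x, hx, rfl, hya⟩ := exists_lift_fusion π hπ ha hbn
    rw [hb] at hya
    obtain ⟨d, h3⟩ := c_one (H := (glSys chevF4 K).H.subgroupOf (chevF4.group K))
      (c_idx (m_mod p (l := 11) hp (by decide)) (by decide)) (hP.map j)
    rcases tri d P (fun x hx => h3 _ ⟨x, hx, rfl⟩) y
      (fun x hx => (Subgroup.mem_normalizer_iff.1 hy x).1 hx) with h | h | h
    · exact absurd (m_one (m := 728) ha ((m_pow hya 6).symm.trans (h x hx))) (by decide)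
    · exact absurd (m_one (m := 6560) ha ((m_pow hya 8).symm.trans (h x hx))) (by decide)
    · exact absurd (m_inv ha ((m_pow hya 6).symm.trans (h x hx))) (by decide)

end Cfsg.Agent.AltF
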